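import Cfsg.Agent.H988.KS.Weight
import Cfsg.Agent.H836.KKL.ESix
import Cfsg.Agent.H482.Car.TwoInv
import Cfsg.Agent.H392.KKL.Dim
import Cfsg.Agent.H167.KKL.Sgn

/-!
# S4577, rows `E₆(q)`, `²E₆(q)`, `q` odd: the pattern of the classes in `D` (helper988)

* `count5` : the elements of one `y`-orbit.
* `exists_sig` : lift of `D` to the group on the module of dimension 27.
* `pattern` : the traces on the Lie algebra are `14` or `-2` on `D#`, five of them are `14`.
-/

set_option autoImplicit false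
set_option linter.unusedSectionVars false

namespace Cfsg.Agent.H988.KS.E6Pat

open Cfsg Cfsg.Lie Cfsg.Agent.H613.KS Cfsg.Agent.H988.KS.Weight

/-! ### counting -/

section Count

variable {G : Type*} [Group G] {D : Subgroup G} {y : G}

theorem pw_of {Q : G → Prop} (hQ : ∀ t, Q (y * t * y⁻¹) ↔ Q t) (t : G) (e : ℕ) :
    Q (y ^ e * t * (y ^ e)⁻¹) ↔ Q t := by
  induction e with
  | zero => simp
  | succ e ih =>
    rw [← ih, ← hQ (y ^ e * t * (y ^ e)⁻¹), pow_succ']
    simp only [mul_inv_rev, mul_assoc]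

/-- the three representatives -/
def mk : Fin 3 → Bool × Bool × Bool × Bool :=
  ![(true, false, false, false), (true, true, false, false), (true, false, true, false)]

theorem masks' : ∀ x : Bool × Bool × Bool × Bool, x ≠ (false, false, false, false) → ∃ (j : Fin 3) (e : Fin 5),
    x = sh^[e] (mk j) := by decide

theorem mk_ne : ∀ (j : Fin 3) (e : Fin 5), sh^[e] (mk j) ≠ (false, false, false, false) := by decide

theorem card_orb : ∀ j : Fin 3, Fintype.card {x : Bool × Bool × Bool × Bool // ∃ e : Fin 5, x = sh^[e] (mk j)} = 5 := by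
  decide

theorem P_mk0 (a b c d : G) : P a b c d (mk 0) = a := by simp [P, pr, mk]
theorem P_mk1 (a b c d : G) : P a b c d (mk 1) = a * b := by simp [P, pr, mk]
theorem P_mk2 (a b c d : G) : P a b c d (mk 2) = a * c := by simp [P, pr, mk]

theorem P_bij (h : E16 D) (hy : Five D y) {a b c d : G} (ha : a ∈ D) (hb : b ∈ D) (hc : c ∈ D) (hd : d ∈ D)
    (h1 : y * a * y⁻¹ = b) (h2 : y * b * y⁻¹ = c) (h3 : y * c * y⁻¹ = d) (h4 : y * d * y⁻¹ = a * b * c * d)
    (ha1 : a ≠ 1) : Function.Injective (P a b c d) := by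
  classical
  have hmem : ∀ x, P a b c d x ∈ D := fun x => pr_mem ha hb hc hd _ _ _ _
  have hfin : Finite D := Nat.finite_of_card_ne_zero (by rw [h.card]; norm_num)
  let f : Bool × Bool × Bool × Bool → D := fun x => ⟨P a b c d x, hmem x⟩
  have hs : Function.Surjective f := by
    rintro ⟨t, ht⟩
    obtain ⟨x, hx⟩ := cover h hy ha hb hc hd h1 h2 h3 h4 ha1 t ht
    exact ⟨x, Subtype.ext hx.symm⟩
  have hbij : Function.Bijective f := by
    have : Fintype D := Fintype.ofFinite D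
    refine (Fintype.bijective_iff_surjective_and_card f).2 ⟨hs, ?_⟩
    rw [← Nat.card_eq_fintype_card (α := D), h.card]
    decide
  intro x x' hxx
  exact hbij.1 (Subtype.ext hxx)

theorem P_ne (h : E16 D) (hy : Five D y) {a b c d : G} (ha : a ∈ D) (hb : b ∈ D) (hc : c ∈ D) (hd : d ∈ D)
    (h1 : y * a * y⁻¹ = b) (h2 : y * b * y⁻¹ = c) (h3 : y * c * y⁻¹ = d) (h4 : y * d * y⁻¹ = a * b * c * d)
    (ha1 : a ≠ 1) {x : Bool × Bool × Bool × Bool} (hx : x ≠ (false, false, false, false)) : P a b c d x ≠ 1 := by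
  intro h5
  apply hx
  apply P_bij h hy ha hb hc hd h1 h2 h3 h4 ha1
  rw [h5]
  simp [P, pr]

/-- **the elements of one orbit** -/
theorem count5 (h : E16 D) (hy : Five D y) {a b c d : G} (ha : a ∈ D) (hb : b ∈ D) (hc : c ∈ D) (hd : d ∈ D)
    (h1 : y * a * y⁻¹ = b) (h2 : y * b * y⁻¹ = c) (h3 : y * c * y⁻¹ = d) (h4 : y * d * y⁻¹ = a * b * c * d)
    (ha1 : a ≠ 1) {Q : G → Prop} (hQ : ∀ t, Q (y * t * y⁻¹) ↔ Q t) (j : Fin 3)
    (hj : ∀ i, Q (P a b c d (mk i)) ↔ i = j) : Nat.card {t : G // t ∈ D ∧ t ≠ 1 ∧ Q t} = 5 := by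
  classical
  have hmem : ∀ x, P a b c d x ∈ D := fun x => pr_mem ha hb hc hd _ _ _ _
  have hinj := P_bij h hy ha hb hc hd h1 h2 h3 h4 ha1
  have key : ∀ x, (P a b c d x ≠ 1 ∧ Q (P a b c d x)) ↔ ∃ e : Fin 5, x = sh^[e] (mk j) := by
    intro x
    constructor
    · rintro ⟨k1, k2⟩
      have hx : x ≠ (false, false, false, false) := by
        rintro rfl
        exact k1 (by simp [P, pr])
      obtain ⟨i, e, rfl⟩ := masks' x hx
      rw [P_iter h ha hb hc hd h1 h2 h3 h4, pw_of hQ, hj] at k2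
      exact ⟨e, by rw [k2]⟩
    · rintro ⟨e, rfl⟩
      refine ⟨P_ne h hy ha hb hc hd h1 h2 h3 h4 ha1 (mk_ne j e), ?_⟩
      rw [P_iter h ha hb hc hd h1 h2 h3 h4, pw_of hQ, hj]
  rw [← card_orb j, ← Nat.card_eq_fintype_card]
  refine Nat.card_congr (Equiv.symm ?_)
  refine Equiv.ofBijective (fun x => ⟨P a b c d x.1, hmem _, (key x.1).2 x.2⟩) ⟨?_, ?_⟩
  · intro x x' hxx
    have h6 : P a b c d x.1 = P a b c d x'.1 := congrArg Subtype.val hxx
    exact Subtype.ext (hinj h6)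
  · rintro ⟨t, ht, ht1, htQ⟩
    obtain ⟨x, rfl⟩ := cover h hy ha hb hc hd h1 h2 h3 h4 ha1 t ht
    exact ⟨⟨x, (key x).1 ⟨ht1, htQ⟩⟩, rfl⟩

end Count

/-! ### lifting -/

section Lift

open Cfsg.Agent.H318.Four

/-- lifting an elementary abelian 2-group -/
theorem exists_sig {L K : Type*} [Group L] [Group K] {π : L →* K} (hk : Lift.Ker3 π) (hs : Function.Surjective π)
    {H : Type*} [Group H] (ψ : H →* K) (hinv : ∀ d : H, d * d = 1) : ∃ s : H →* L, ∀ d, π (s d) = ψ d := by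
  have h1 : ∀ d : H, ∃ x : L, x * x = 1 ∧ π x = ψ d := fun d =>
    Lift.exists_lift hk hs (by rw [← map_mul, hinv, map_one])
  choose s h1 h2 using h1
  have hc : ∀ d e, s d * s e = s e * s d := by
    intro d e
    have hz : π (s d * s e * (s d * s e)) = 1 := by
      rw [map_mul, map_mul, h2, h2, ← map_mul, ← map_mul, hinv, map_one]
    obtain ⟨z1, z2⟩ := hk _ hz
    have h3 : s d * (s d * s e * (s d * s e)) = s d * s e * (s d * s e) * s d := z1 (s d)
    have h4 : s d * s e * (s d * s e) = s e * s d * (s e * s d) := by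
      have h5 : s d * (s d * (s d * s e * (s d * s e))) = s d * (s d * s e * (s d * s e) * s d) := by rw [h3]
      rw [← mul_assoc, h1, one_mul] at h5
      rw [h5, show s d * (s d * s e * (s d * s e) * s d) = (s d * s d) * s e * (s d * s e) * s d by group, h1, one_mul]
      group
    have h5 : s d * s e * (s d * s e) * (s d * s e * (s d * s e)) = 1 := by
      nth_rewrite 2 [h4]
      calc s d * s e * (s d * s e) * (s e * s d * (s e * s d)) =
          s d * s e * s d * (s e * s e) * s d * s e * s d := by group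
        _ = s d * s e * (s d * s d) * s e * s d := by rw [h1]; group
        _ = s d * (s e * s e) * s d := by rw [h1]; group
        _ = 1 := by rw [h1, mul_one, h1]
    have h6 : s d * s e * (s d * s e) = 1 := Lift.eq_one_of hk hz h5
    calc s d * s e = (s d * s e) * (s d * s e) * ((s e)⁻¹ * (s d)⁻¹) := by group
      _ = s e * s d := by
        rw [h6, one_mul, inv_eq_of_mul_eq_one_left (h1 d), inv_eq_of_mul_eq_one_left (h1 e)]
  refine ⟨MonoidHom.mk' s fun d e => ?_, h2⟩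
  refine Lift.unique hk (h1 _) ?_ (by rw [map_mul, h2, h2, h2, map_mul])
  rw [hc d e]
  calc s e * s d * (s e * s d) = s e * s d * (s d * s e) := by rw [← hc d e]
    _ = s e * (s d * s d) * s e := by group
    _ = 1 := by rw [h1, mul_one, h1]

end Lift

/-! ### the pattern -/

section Pat

open Cfsg.Agent.ChevalleyStructure.E6Min.Tables Cfsg.Agent.ChevalleyStructure.E6Min.Basic
  Cfsg.Agent.ChevalleyStructure.E6Min.Adjoint
open Cfsg.Agent.H318.Four Cfsg.Agent.H836.KKL
open Cfsg.Agent.H351.SpSix (rep)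
open Cfsg.Agent.H720.TwFr (hp6)
open Cfsg.Agent.H167.KKL (trL trL_conj)
open Cfsg.Agent.GenExc.Chev (zS)
open Cfsg.Agent.GenExc.Chev (isType_E6)
open Cfsg.Agent.Nodes.RGDChev

variable {F : Type} [Field F] [Fintype F]

/-- the trace of an involution -/
theorem trace_inv {k V : Type*} [Field k] [AddCommGroup V] [Module k V] [FiniteDimensional k V] (h2 : (2 : k) ≠ 0)
    {f : Module.End k V} (hf : f * f = 1) :
    LinearMap.trace k V f = (Module.finrank k V : k) - 2 * (Module.finrank k ↥(LinearMap.ker (f + 1)) : k) := by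
  have hff : ∀ v, f (f v) = v := fun v => congrArg (fun g : Module.End k V => g v) hf
  have h1 : LinearMap.IsProj (LinearMap.ker (f + 1)) ((2 : k)⁻¹ • (1 - f)) := by
    refine ⟨fun v => ?_, fun v hv => ?_⟩
    · show (f + 1) ((2 : k)⁻¹ • (v - f v)) = 0
      rw [map_smul, LinearMap.add_apply, Module.End.one_apply, map_sub, hff, sub_add_sub_cancel, sub_self, smul_zero]
    · have hv' : f v + v = 0 := hv
      have h3 : f v = -v := eq_neg_of_add_eq_zero_left hv'
      show (2 : k)⁻¹ • (v - f v) = v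
      rw [h3, sub_neg_eq_add, ← two_smul k v, smul_smul, inv_mul_cancel₀ h2, one_smul]
  have h3 := h1.trace
  rw [map_smul, map_sub, LinearMap.trace_one, smul_eq_mul] at h3
  rw [← h3]
  field_simp
  ring

theorem trL_eq (h2 : (2 : F) ≠ 0) {t : ↥(chevE6.group F)} (ht : t * t = 1) :
    trL chevE6 t = 78 - 2 * (Module.finrank F ↥(LinearMap.ker (H392.KKL.rho chevE6 F t + 1)) : F) := by
  have h1 := trace_inv h2 (f := H392.KKL.rho chevE6 F t) (by rw [← map_mul, ht, map_one])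
  rw [H392.KKL.rho_apply, Matrix.trace_toLin'_eq] at h1
  rw [H392.KKL.rho_apply]
  unfold trL
  rw [h1, Module.finrank_fintype_fun_eq_card]
  have h4 : Fintype.card chevE6.Idx = 78 := by
    show Fintype.card (Fin chevE6.rank ⊕ Fin chevE6.nroots) = 78
    rw [Fintype.card_sum, Fintype.card_fin, Fintype.card_fin]
    rfl
  rw [h4]
  norm_num

theorem arith {A a1 a2 a3 n1 n2 n3 f : ℕ} (e1 : n1 = 2 * (A + a1)) (e2 : n2 = 2 * (A + a2)) (e3 : n3 = 2 * (A + a3))
    (eA : A = a1 + a2 + a3) (eV : 27 = f + 5 * A) (c1 : n1 = 12 ∨ n1 = 16) (c2 : n2 = 12 ∨ n2 = 16)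
    (c3 : n3 = 12 ∨ n3 = 16) : (n1 = 16 ∧ n2 = 12 ∧ n3 = 12) ∨ (n1 = 12 ∧ n2 = 16 ∧ n3 = 12) ∨
      (n1 = 12 ∧ n2 = 12 ∧ n3 = 16) := by
  omega

/-- **the pattern of the classes** -/
theorem pattern {K : Type} [Group K] [Finite K] (ho : Odd (Fintype.card F)) (ψ : K →* ↥(chevE6.group F))
    (hψ : Function.Injective ψ) {D : Subgroup K} {x : K} (hc : Cfg D x) :
    (∀ d ∈ D, d ≠ 1 → trL chevE6 (ψ d) = 14 ∨ trL chevE6 (ψ d) = -2) ∧
      Nat.card {d : K // d ∈ D ∧ d ≠ 1 ∧ trL chevE6 (ψ d) = 14} = 5 := by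
  classical
  have h2 := H351.SpSix.two_ne_zero_of_odd ho
  have h16 := hc.e16
  obtain ⟨y, hy⟩ := hc.five
  have hinv : ∀ d : D, d * d = 1 := fun d => Subtype.ext (h16.inv d d.2)
  obtain ⟨s, hs⟩ := exists_sig (RowE6.ker3 F) ad_surjective (ψ.comp D.subtype) hinv
  have ssq : ∀ d, s d * s d = 1 := fun d => by rw [← map_mul, hinv, map_one]
  obtain ⟨Y, hY⟩ := ad_surjective (ψ y)
  have hYs : ∀ (d e : D), (e : K) = y * d * y⁻¹ → s e = Y * s d * Y⁻¹ := by
    intro d e he
    refine Lift.unique (RowE6.ker3 F) (ssq e) ?_ ?_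
    · rw [show Y * s d * Y⁻¹ * (Y * s d * Y⁻¹) = Y * (s d * s d) * Y⁻¹ by group, ssq d, mul_one, mul_inv_cancel]
    · rw [map_mul, map_mul, map_inv, hY, hs, hs]
      show ψ e = _
      rw [he, map_mul, map_mul, map_inv]
      rfl
  -- the rank of the lift
  let θ : Zgrp F →* Matrix.GeneralLinearGroup I27 F := (Zgrp F).subtype
  have hne : ∀ d : D, d ≠ 1 → (((s d : Zgrp F) : Matrix.GeneralLinearGroup I27 F) : Matrix I27 I27 F) - 1 ≠ 0 := by
    intro d hd h
    apply hd
    have h3 : s d = 1 := Subtype.ext (Units.ext (sub_eq_zero.1 h))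
    have h4 := hs d
    rw [h3, map_one] at h4
    exact Subtype.ext (hψ (h4.symm.trans (map_one ψ).symm))
  have hr : ∀ d : D, d ≠ 1 → Module.finrank F ↥(LinearMap.ker (rep θ (s d) + 1)) = 12 ∨
      Module.finrank F ↥(LinearMap.ker (rep θ (s d) + 1)) = 16 := by
    intro d hd
    rw [finrank_m h2 θ (ssq d)]
    rcases E6Inv.rank_inv ho h2 (ssq d) with h | h
    · exact absurd (eq_zero_of_rank h) (hne d hd)
    · exact h
  -- conjugate elements
  have hcj : ∀ (d e : D), IsConj (ψ d) (ψ e) → Module.finrank F ↥(LinearMap.ker (rep θ (s d) + 1)) =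
      Module.finrank F ↥(LinearMap.ker (rep θ (s e) + 1)) := by
    intro d e hde
    obtain ⟨g, hg⟩ := isConj_iff.1 hde
    obtain ⟨X, hX⟩ := ad_surjective g
    have h3 : s e = X * s d * X⁻¹ := by
      refine Lift.unique (RowE6.ker3 F) (ssq e) ?_ ?_
      · rw [show X * s d * X⁻¹ * (X * s d * X⁻¹) = X * (s d * s d) * X⁻¹ by group, ssq d, mul_one, mul_inv_cancel]
      · rw [map_mul, map_mul, map_inv, hX, hs, hs]
        exact hg.symm
    rw [h3, H392.KKL.finrank_conj (rep θ)]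
  -- the dimension on the Lie algebra
  have hcs := (CoxeterMatrix.E₆).toCoxeterSystem
  have h12 := H392.KKL.finrank_zS (K := F) isType_E6 hcs h2 [1, 2] (n := 32) (by decide +kernel)
  have h035 := H392.KKL.finrank_zS (K := F) isType_E6 hcs h2 [0, 3, 5] (n := 40) (by decide +kernel)
  have hψ1 : ∀ d : D, d ≠ 1 → ψ d ≠ 1 := fun d hd h => hd (Subtype.ext (hψ (h.trans (map_one ψ).symm)))
  have hψ2 : ∀ d : D, ψ d * ψ d = 1 := fun d => by rw [← map_mul, h16.inv d d.2, map_one]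
  have hcl : ∀ d : D, d ≠ 1 → IsConj (zS isType_E6 F [1, 2]) (ψ d) ∨ IsConj (zS isType_E6 F [0, 3, 5]) (ψ d) :=
    fun d hd => (H482.Car.E6_cases ho (hψ2 d)).resolve_left (hψ1 d hd)
  have h12' : ∀ d : D, d ≠ 1 → Module.finrank F ↥(LinearMap.ker (rep θ (s d) + 1)) = 12 →
      IsConj (zS isType_E6 F [0, 3, 5]) (ψ d) := by
    intro d hd h
    refine (hcl d hd).resolve_left fun h3 => ?_
    have h4 := H392.KKL.finrank_of_isConj (H392.KKL.rho chevE6 F) h3
    rw [h12] at h4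
    rw [finrank_m h2 θ (ssq d)] at h
    have h5 := rank_cl ho (cls ho (hψ2 d) (ssq d) (hs d) h)
    have h6 := finrank_m h2 (chevE6.group F).subtype (hψ2 d)
    rw [show (((chevE6.group F).subtype (ψ d) : Matrix.GeneralLinearGroup chevE6.Idx F) :
      Matrix chevE6.Idx chevE6.Idx F) = ((ψ d : Matrix.GeneralLinearGroup chevE6.Idx F) :
      Matrix chevE6.Idx chevE6.Idx F) from rfl, h5] at h6
    have h7 : rep (chevE6.group F).subtype (ψ d) = H392.KKL.rho chevE6 F (ψ d) := by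
      apply LinearMap.ext
      intro v
      rw [H351.SpSix.rep_apply, H392.KKL.rho_apply, Matrix.toLin'_apply]
      rfl
    rw [h7, h4] at h6
    omega
  -- the traces
  have htr : ∀ d : D, d ≠ 1 → (IsConj (zS isType_E6 F [1, 2]) (ψ d) ∧ trL chevE6 (ψ d) = 14) ∨
      (IsConj (zS isType_E6 F [0, 3, 5]) (ψ d) ∧ trL chevE6 (ψ d) = -2) := by
    intro d hd
    rcases hcl d hd with h | h
    · left
      refine ⟨h, ?_⟩
      rw [trL_eq h2 (hψ2 d), H392.KKL.finrank_of_isConj (H392.KKL.rho chevE6 F) h, h12]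
      norm_num
    · right
      refine ⟨h, ?_⟩
      rw [trL_eq h2 (hψ2 d), H392.KKL.finrank_of_isConj (H392.KKL.rho chevE6 F) h, h035]
      norm_num
  have hnn : (14 : F) ≠ -2 := by
    intro h
    have h3 : (2 : F) * (2 * (2 * 2)) = 0 := by linear_combination h
    rcases mul_eq_zero.1 h3 with h | h
    · exact h2 h
    rcases mul_eq_zero.1 h with h | h
    · exact h2 h
    rcases mul_eq_zero.1 h with h | h <;> exact h2 h
  refine ⟨fun d hd hd1 => ?_, ?_⟩
  · rcases htr ⟨d, hd⟩ (fun h => hd1 (congrArg Subtype.val h)) with h | h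
    · exact Or.inl h.2
    · exact Or.inr h.2
  -- the generators
  obtain ⟨a, ha, ha1⟩ : ∃ a ∈ D, a ≠ 1 := by
    by_contra hcon
    push Not at hcon
    have h3 : D = ⊥ := (Subgroup.eq_bot_iff_forall D).2 hcon
    have h4 := h16.card
    rw [h3, Subgroup.card_bot] at h4
    omega
  obtain ⟨b, c, d, hb, hc', hd, e1, e2, e3, e4, e5⟩ := gens h16 hy ha
  have hsinj : Function.Injective s := by
    intro u v huv
    have h3 := congrArg (ad F) huv
    rw [hs, hs] at h3
    exact Subtype.ext (hψ h3)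
  have h16' : E16 s.range := by
    refine ⟨?_, ?_⟩
    · rw [← h16.card]
      exact Nat.card_congr (MonoidHom.ofInjective hsinj).symm.toEquiv
    · rintro _ ⟨u, rfl⟩
      exact ssq u
  let a' : D := ⟨a, ha⟩
  let b' : D := ⟨b, hb⟩
  let c' : D := ⟨c, hc'⟩
  let d' : D := ⟨d, hd⟩
  obtain ⟨A, a1, a2, a3, w1, w2, w3, wA, wV, -⟩ := weights (y := Y) h16' h2 (rep θ) (a := s a') (b := s b') (c := s c')
    (d := s d') ⟨_, rfl⟩ ⟨_, rfl⟩ ⟨_, rfl⟩ ⟨_, rfl⟩ (hYs a' b' e1.symm).symm (hYs b' c' e2.symm).symm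
    (hYs c' d' e3.symm).symm (by
      have h3 := (hYs d' (a' * b' * c' * d') e4.symm).symm
      rw [h3, map_mul, map_mul, map_mul])
  rw [RowE6.finrank_27] at wV
  rw [← map_mul] at w2 w3
  have m0 := P_ne h16 hy ha hb hc' hd e1 e2 e3 e4 ha1 (mk_ne 0 0)
  have m1 := P_ne h16 hy ha hb hc' hd e1 e2 e3 e4 ha1 (mk_ne 1 0)
  have m2 := P_ne h16 hy ha hb hc' hd e1 e2 e3 e4 ha1 (mk_ne 2 0)
  have n0 : a' ≠ 1 := fun h => ha1 (congrArg Subtype.val h)
  have n1 : a' * b' ≠ 1 := fun h => m1 ((P_mk1 a b c d).trans (congrArg Subtype.val h))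
  have n2 : a' * c' ≠ 1 := fun h => m2 ((P_mk2 a b c d).trans (congrArg Subtype.val h))
  have hcase := arith w1 w2 w3 wA wV (hr _ n0) (hr _ n1) (hr _ n2)
  have hq12 : ∀ u : D, u ≠ 1 → Module.finrank F ↥(LinearMap.ker (rep θ (s u) + 1)) = 12 →
      trL chevE6 (ψ u) = -2 := by
    intro u hu h
    rw [trL_eq h2 (hψ2 u), H392.KKL.finrank_of_isConj (H392.KKL.rho chevE6 F) (h12' u hu h), h035]
    norm_num
  have hq16 : ∀ u v : D, u ≠ 1 → v ≠ 1 → Module.finrank F ↥(LinearMap.ker (rep θ (s u) + 1)) = 12 →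
      Module.finrank F ↥(LinearMap.ker (rep θ (s v) + 1)) = 16 → trL chevE6 (ψ v) = 14 := by
    intro u v hu hv h3 h4
    rcases htr v hv with h | h
    · exact h.2
    · exfalso
      have h5 := hcj u v ((h12' u hu h3).symm.trans h.1)
      rw [h3, h4] at h5
      omega
  have hQ : ∀ t : K, trL chevE6 (ψ (y * t * y⁻¹)) = 14 ↔ trL chevE6 (ψ t) = 14 := by
    intro t
    rw [map_mul, map_mul, map_inv, trL_conj]
  have t0 : P a b c d (mk 0) = (a' : K) := P_mk0 a b c d
  have t1 : P a b c d (mk 1) = ((a' * b' : D) : K) := P_mk1 a b c d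
  have t2 : P a b c d (mk 2) = ((a' * c' : D) : K) := P_mk2 a b c d
  have hno : ∀ {z : F}, z = -2 → ¬ z = 14 := fun h h' => hnn (h'.symm.trans h)
  rcases hcase with ⟨k0, k1, k2⟩ | ⟨k0, k1, k2⟩ | ⟨k0, k1, k2⟩
  · refine count5 h16 hy ha hb hc' hd e1 e2 e3 e4 ha1 hQ 0 fun i => ?_
    fin_cases i
    · exact iff_of_true ((congrArg (fun z => trL chevE6 (ψ z)) t0).trans (hq16 _ _ n1 n0 k1 k0)) rfl
    · exact iff_of_false (hno ((congrArg (fun z => trL chevE6 (ψ z)) t1).trans (hq12 _ n1 k1))) (by decide)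
    · exact iff_of_false (hno ((congrArg (fun z => trL chevE6 (ψ z)) t2).trans (hq12 _ n2 k2))) (by decide)
  · refine count5 h16 hy ha hb hc' hd e1 e2 e3 e4 ha1 hQ 1 fun i => ?_
    fin_cases i
    · exact iff_of_false (hno ((congrArg (fun z => trL chevE6 (ψ z)) t0).trans (hq12 _ n0 k0))) (by decide)
    · exact iff_of_true ((congrArg (fun z => trL chevE6 (ψ z)) t1).trans (hq16 _ _ n0 n1 k0 k1)) rfl
    · exact iff_of_false (hno ((congrArg (fun z => trL chevE6 (ψ z)) t2).trans (hq12 _ n2 k2))) (by decide)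
  · refine count5 h16 hy ha hb hc' hd e1 e2 e3 e4 ha1 hQ 2 fun i => ?_
    fin_cases i
    · exact iff_of_false (hno ((congrArg (fun z => trL chevE6 (ψ z)) t0).trans (hq12 _ n0 k0))) (by decide)
    · exact iff_of_false (hno ((congrArg (fun z => trL chevE6 (ψ z)) t1).trans (hq12 _ n1 k1))) (by decide)
    · exact iff_of_true ((congrArg (fun z => trL chevE6 (ψ z)) t2).trans (hq16 _ _ n0 n2 k0 k2)) rfl

end Pat

end Cfsg.Agent.H988.KS.E6Pat
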